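import Mathlib

/-!
# Operators attached to a unipotent element in characteristic `p`
-/

set_option autoImplicit false

namespace Cfsg.Agent.CyclicTI

open Polynomial Finset

variable {F : Type*} [Field F] {V : Type*} [AddCommGroup V] [Module F V]

/-- `X ^ 2` divides `(X + 1) ^ a - 1 - a X`. -/
theorem sq_dvd_add_one_pow (a : ℕ) :
    ∃ Q : F[X], (X + 1) ^ a - 1 = (a : F[X]) * X + X ^ 2 * Q := by
  induction a with
  | zero => exact ⟨0, by simp⟩
  | succ a ih =>
    obtain ⟨Q, hQ⟩ := ih
    refine ⟨Q * (X + 1) + (a : F[X]), ?_⟩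
    have : (X + 1 : F[X]) ^ a = 1 + (a : F[X]) * X + X ^ 2 * Q := by
      rw [eq_add_of_sub_eq hQ]; ring
    rw [pow_succ, this]; push_cast; ring

/-- A nilpotent operator with `T ^ j ≠ 0` has, for `j < m`, a vector killed by `T ^ m`
but not by `T ^ j`. -/
theorem exists_ker_pow_not_ker_pow (T : Module.End F V) {j m N : ℕ} (hjm : j < m)
    (hN : T ^ N = 0) (hj : T ^ j ≠ 0) : ∃ v, (T ^ m) v = 0 ∧ (T ^ j) v ≠ 0 := by
  by_contra hcon
  push Not at hcon
  apply hj
  have key : ∀ k, ∀ i, j ≤ i → N ≤ i + k → T ^ i = 0 := by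
    intro k
    induction k with
    | zero => intro i _ hi; exact pow_eq_zero_of_le (by omega) hN
    | succ k ih =>
      intro i hji hik
      apply LinearMap.ext
      intro v
      have h1 : T ^ (i + (m - j)) = 0 := ih _ (by omega) (by omega)
      have h2 : (T ^ m) ((T ^ (i - j)) v) = 0 := by
        rw [← Module.End.mul_apply, ← pow_add, show m + (i - j) = i + (m - j) by omega, h1]
        rfl
      have h3 := hcon _ h2
      rw [← Module.End.mul_apply, ← pow_add, show j + (i - j) = i by omega] at h3
      simpa using h3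
  exact key N j le_rfl (by omega)

/-- Traces over a cyclic unipotent group of order `q = p ^ n` kill the kernel of `T ^ m`. -/
theorem trace_kills_ker {p : ℕ} [Fact p.Prime] [CharP F p] (n : ℕ) (u u' ψ : Module.End F V)
    (huu' : u * u' = 1) (hu'u : u' * u = 1) (D m : ℕ) (hD : (u - 1) ^ D = 0)
    (hq : D + m ≤ p ^ n) (v : V) (hv : ((u - 1) ^ m) v = 0) :
    (∑ i ∈ range (p ^ n), u ^ i * ψ * u' ^ i) v = 0 := by
  set q := p ^ n with hqdef
  have hqpos : 0 < q := pow_pos (Fact.out : p.Prime).pos n
  set T : Module.End F V := u - 1 with hT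
  set Λ : Module.End F (Module.End F V) :=
    LinearMap.mulLeft F u * LinearMap.mulRight F u' with hΛ
  have hΛpow : ∀ i, (Λ ^ i) ψ = u ^ i * ψ * u' ^ i := by
    intro i
    induction i with
    | zero => simp
    | succ i ih =>
      rw [pow_succ', Module.End.mul_apply, ih, hΛ, Module.End.mul_apply]
      simp only [LinearMap.mulLeft_apply, LinearMap.mulRight_apply]
      rw [pow_succ', pow_succ]
      noncomm_ring
  have hpoly : (∑ i ∈ range q, (X : F[X]) ^ i) = (X - 1) ^ (q - 1) := by
    have h1 : (∑ i ∈ range q, (X : F[X]) ^ i) * (X - 1) = (X - 1) ^ q := by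
      rw [geom_sum_mul, hqdef, sub_pow_char_pow, one_pow]
    have h2 : (X - 1 : F[X]) ^ q = (X - 1) ^ (q - 1) * (X - 1) := by
      rw [← pow_succ]; congr 1; omega
    rw [h2] at h1
    exact mul_right_cancel₀ (X_sub_C_ne_zero (1 : F) |> fun h => by simpa using h) h1
  have hsum : (∑ i ∈ range q, u ^ i * ψ * u' ^ i) = ((Λ - 1) ^ (q - 1)) ψ := by
    have h := congrArg (fun f : F[X] => aeval Λ f) hpoly
    simp only [map_sum, map_pow, aeval_X, map_sub, map_one] at h
    rw [← h, LinearMap.sum_apply]
    exact sum_congr rfl fun i _ => (hΛpow i).symm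
  set A : Module.End F (Module.End F V) := LinearMap.mulLeft F T with hA
  set B : Module.End F (Module.End F V) := LinearMap.mulRight F (-T) with hB
  set R : Module.End F (Module.End F V) := LinearMap.mulRight F u' with hR
  have hΛ1 : Λ - 1 = R * (A + B) := by
    apply LinearMap.ext
    intro f
    simp only [hΛ, hR, hA, hB, LinearMap.sub_apply, LinearMap.add_apply, Module.End.mul_apply,
      LinearMap.mulLeft_apply, LinearMap.mulRight_apply, Module.End.one_apply, hT]
    calc u * (f * u') - f = u * f * u' - f * (u * u') := by rw [huu', mul_one, mul_assoc]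
      _ = _ := by noncomm_ring
  have hTu' : Commute T u' := by
    show (u - 1) * u' = u' * (u - 1)
    rw [sub_mul, mul_sub, huu', hu'u, one_mul, mul_one]
  have hRA : Commute R A := by
    apply LinearMap.ext
    intro f
    simp only [hR, hA, Module.End.mul_apply, LinearMap.mulLeft_apply, LinearMap.mulRight_apply]
    rw [mul_assoc]
  have hRB : Commute R B := by
    apply LinearMap.ext
    intro f
    simp only [hR, hB, Module.End.mul_apply, LinearMap.mulRight_apply]
    rw [mul_assoc, mul_assoc, (hTu'.neg_left).eq]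
  have hAB : Commute A B := by
    apply LinearMap.ext
    intro f
    simp only [hA, hB, Module.End.mul_apply, LinearMap.mulLeft_apply, LinearMap.mulRight_apply]
    rw [mul_assoc]
  have hApow : ∀ i f, (A ^ i) f = T ^ i * f := fun i f => by
    rw [hA, LinearMap.pow_mulLeft, LinearMap.mulLeft_apply]
  have hBpow : ∀ i f, (B ^ i) f = f * (-T) ^ i := fun i f => by
    rw [hB, LinearMap.pow_mulRight, LinearMap.mulRight_apply]
  have hRpow : ∀ i f, (R ^ i) f = f * u' ^ i := fun i f => by
    rw [hR, LinearMap.pow_mulRight, LinearMap.mulRight_apply]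
  rw [hsum, hΛ1, (hRA.add_right hRB).mul_pow, Module.End.mul_apply, hRpow]
  set w := (u' ^ (q - 1)) v with hw
  have hwker : (T ^ m) w = 0 := by
    rw [hw, ← Module.End.mul_apply, (hTu'.pow_pow m (q - 1)).eq, Module.End.mul_apply, hv,
      map_zero]
  rw [Module.End.mul_apply, ← hw, hAB.add_pow, LinearMap.sum_apply,
    LinearMap.sum_apply]
  apply sum_eq_zero
  intro i hi
  rw [Module.End.mul_apply, Module.End.mul_apply, hApow]
  by_cases hiD : D ≤ i
  · rw [pow_eq_zero_of_le hiD hD, zero_mul]; rfl
  · rw [Module.End.mul_apply]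
    have hk : m ≤ q - 1 - i := by omega
    have hcast : ∀ (c : ℕ), ((c : Module.End F (Module.End F V))) ψ = c • ψ := fun c => by
      induction c with
      | zero => simp
      | succ c ihc => simp [ihc, add_smul]
    rw [hcast, map_nsmul, hBpow, LinearMap.smul_apply, Module.End.mul_apply]
    obtain ⟨l, hl⟩ := Nat.exists_eq_add_of_le hk
    have hz : (T ^ (q - 1 - i)) w = 0 := by
      rw [hl, add_comm, pow_add, Module.End.mul_apply, hwker, map_zero]
    rw [neg_pow, Module.End.mul_apply, hz]
    simp

end Cfsg.Agent.CyclicTI
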